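import Cfsg.Agent.Lib.Fi.T23b
import Cfsg.Agent.Lib.Fi.Clq
import Cfsg.Agent.S0283

set_option autoImplicit false

namespace Cfsg.Lib.Fi

open Subgroup

variable {G : Type*} [Group G]

theorem normal_center_map {K C : Subgroup G} (hKC : K ≤ C) [h : (K.subgroupOf C).Normal] :
    (((center K).map K.subtype).subgroupOf C).Normal := by
  rw [Core.map_subtype_center]
  refine ⟨fun n hn g => ⟨h.conj_mem n hn.1 g, fun k hk => ?_⟩⟩
  have : (g : G)⁻¹ * k * (g : G)⁻¹⁻¹ * n = n * ((g : G)⁻¹ * k * (g : G)⁻¹⁻¹) := hn.2 _ (h.conj_mem ⟨k, hKC hk⟩ hk g⁻¹)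
  calc k * (g * n * (g : G)⁻¹) = g * ((g : G)⁻¹ * k * (g : G)⁻¹⁻¹ * n) * (g : G)⁻¹ := by group
    _ = (g * n * (g : G)⁻¹) * k := by rw [this]; group

theorem M23.two_facts [Finite G] {D : Set G} (hD : IsThreeTranspositionGroup D) (h23 : IsOfTypeM23 G D) {d₁ d₂ : G}
    (h₁ : d₁ ∈ D) (h₂ : d₂ ∈ D) (hne : d₁ ≠ d₂) (hc : Commute d₁ d₂) :
    (center (centralizer {d₁, d₂})).map (centralizer {d₁, d₂}).subtype = closure {d₁, d₂} ∧
      IsQuasisimple (centralizer {d₁, d₂}) ∧ ∃ (F : Type) (_ : Field F) (_ : Fintype F), Fintype.card F = 4 ∧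
        Nonempty (centralizer {d₁, d₂} ⧸ center (centralizer {d₁, d₂}) ≃* PSU 6 F 2) := by
  obtain ⟨τ₀, τ', h₀, -, -, _, ⟨c, hc', rfl⟩, -, -, -, ⟨F, _, _, hF, ⟨e₁⟩⟩, -⟩ := M23.pack hD h23
  obtain ⟨e₂⟩ := (M23.loc1 h₀ hD).two hc'
  obtain ⟨g, g1, g2⟩ := h₀.conj_pair M23.std2 h₁ h₂ hne hc (h₀.mem (a := M23.s1.1) (by decide)) hc'.1 hc'.2.1.symm hc'.2.2
  obtain ⟨e₃⟩ := centralizer_pair_equiv g d₁ d₂
  obtain ⟨τ, h, rfl, rfl⟩ := h₀.std2 M23.std2 h₁ h₂ hne hc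
  have k := M23.centralizer_two (h.conj g)
  rw [g1, g2] at k e₃
  obtain ⟨e₄⟩ := center_congr' (e₃.trans (MulEquiv.subgroupCongr k))
  have e := (e₄.trans e₂).trans e₁
  have hs := Agent.S0283.result (q := 2) hF 6 (by omega) (by omega)
  have k1 : ∀ a ∈ M23.z2, τ a ∈ Subgroup.centralizer {τ M23.s1.1, τ M23.s2.1} := fun a ha =>
    (M23.centralizer_two h).ge (Subgroup.subset_closure (M23.mem_LL h M23.z2_nb a ha))
  have k2 : Subgroup.closure {τ M23.s1.1, τ M23.s2.1} ≤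
      Subgroup.centralizer (Subgroup.centralizer {τ M23.s1.1, τ M23.s2.1} : Set G) :=
    (Subgroup.closure_le _).2 fun x hx y hy => (hy x hx).symm
  have k3 : CZ τ (pws M23.z2) = Subgroup.closure {τ M23.s1.1, τ M23.s2.1} :=
    (Subgroup.eq_of_le_of_card_ge (fun x hx => mem_CZ.2 fun t ht => by
      obtain ⟨a, ha, rfl⟩ := mem_pws.1 ht
      exact k2 hx _ (k1 a ha)) (by rw [M23.card_cz2 h, card_closure_pair (hD.1.1 _ h₁) (hD.1.1 _ h₂) hne hc])).symm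
  refine ⟨?_, ⟨M23.centralizer_two h ▸ M23.perfect_two h, e.isSimpleGroup⟩, ⟨F, _, _, hF, ⟨e⟩⟩⟩
  rw [Core.map_subtype_center]
  refine le_antisymm (fun x hx => k3.le (mem_CZ.2 fun t ht => ?_)) (le_inf ((Subgroup.closure_le _).2 ?_) k2)
  · obtain ⟨a, ha, rfl⟩ := mem_pws.1 ht
    exact hx.2 _ (k1 a ha)
  · rintro _ (rfl | rfl) _ (rfl | rfl)
    exacts [rfl, hc.symm, hc, rfl]

end Cfsg.Lib.Fi
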